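/-
The conjugate transpose on `3 × 3` matrices over a field with `q ^ 2` elements, `q` a power of 3.
-/
import Mathlib
import Cfsg.Agent.Lib.Cover2.Basic
import Cfsg.Agent.Lib.Classical.Herm.Tv

set_option autoImplicit false
set_option linter.unusedSectionVars false
set_option linter.unusedSimpArgs false
set_option linter.unusedVariables false

open scoped Matrix
open Polynomial Cfsg
open Cfsg.Agent.Lib.Classical.Herm.Basic Cfsg.Agent.Lib.Classical.Herm.GU
open Cfsg.Agent.Lib.Classical.Herm.SU

namespace Cfsg.Agent.Lib.Cover2.PSU3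

variable {F : Type*} [Field F] [Fintype F] {q : ℕ}

local notation "M3" => Matrix (Fin 3) (Fin 3) F
local notation "⟪" x ", " y "⟫" => hermForm _ _ q x y

/-- The conjugate transpose for `x ↦ x ^ q`. -/
def adj (q : ℕ) (A : Matrix (Fin 3) (Fin 3) F) : Matrix (Fin 3) (Fin 3) F :=
  Matrix.of fun i j => A j i ^ q

@[simp] theorem adj_apply (A : M3) (i j : Fin 3) : adj q A i j = A j i ^ q := rfl

theorem adj_adj (hF : Fintype.card F = q ^ 2) (A : M3) : adj q (adj q A) = A := by
  ext i j
  simp [pow_q_pow_q hF]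

theorem adj_mul (hF : Fintype.card F = q ^ 2) (A B : M3) : adj q (A * B) = adj q B * adj q A := by
  ext i j
  simp only [adj_apply, Matrix.mul_apply, pow_q_sum hF, mul_pow]
  exact Finset.sum_congr rfl fun k _ => mul_comm _ _

theorem adj_add (hF : Fintype.card F = q ^ 2) (A B : M3) : adj q (A + B) = adj q A + adj q B := by
  ext i j
  simp [pow_q_add hF]

theorem adj_sub (hF : Fintype.card F = q ^ 2) (A B : M3) : adj q (A - B) = adj q A - adj q B := by
  ext i j
  simp [pow_q_sub hF]

theorem adj_smul (c : F) (A : M3) : adj q (c • A) = c ^ q • adj q A := by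
  ext i j
  simp [mul_pow]

theorem adj_one (hF : Fintype.card F = q ^ 2) : adj q (1 : M3) = 1 := by
  ext i j
  have hz := zero_pow_q hF
  by_cases h : i = j
  · subst h
    simp
  · simp [Matrix.one_apply, h, Ne.symm h, hz]

theorem adj_zero (hF : Fintype.card F = q ^ 2) : adj q (0 : M3) = 0 := by
  ext i j
  simp [zero_pow_q hF]

theorem adj_pow (hF : Fintype.card F = q ^ 2) (A : M3) (n : ℕ) : adj q (A ^ n) = adj q A ^ n := by
  induction n with
  | zero => simp [adj_one hF]
  | succ n ih =>
    rw [pow_succ, adj_mul hF, ih, pow_succ']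

theorem adj_scalar (hF : Fintype.card F = q ^ 2) (c : F) :
    adj q (Matrix.scalar (Fin 3) c) = Matrix.scalar (Fin 3) (c ^ q) := by
  rw [Matrix.scalar_apply, Matrix.scalar_apply]
  ext i j
  by_cases h : i = j
  · subst h
    simp
  · simp [Matrix.diagonal_apply, h, Ne.symm h, zero_pow_q hF]

/-- The adjoint for the form. -/
theorem herm_left (hF : Fintype.card F = q ^ 2) (A : M3) (u v : Fin 3 → F) :
    ⟪A *ᵥ u, v⟫ = ⟪u, adj q A *ᵥ v⟫ := by
  simp only [hermForm_apply, Matrix.mulVec, dotProduct, adj_apply, Fin.sum_univ_three, pow_q_add hF,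
    mul_pow, pow_q_pow_q hF]
  ring

theorem herm_right (hF : Fintype.card F = q ^ 2) (A : M3) (u v : Fin 3 → F) :
    ⟪u, A *ᵥ v⟫ = ⟪adj q A *ᵥ u, v⟫ := by
  rw [herm_left hF, adj_adj hF]

/-- Entries of `adj P * Q` are values of the form on columns. -/
theorem adj_mul_apply (P Q : M3) (i j : Fin 3) :
    (adj q P * Q) i j = ⟪fun k => Q k j, fun k => P k i⟫ := by
  simp only [Matrix.mul_apply, adj_apply, hermForm_apply]
  exact Finset.sum_congr rfl fun k _ => mul_comm _ _

theorem preserves_of_adj {A : M3} (hF : Fintype.card F = q ^ 2) (h : adj q A * A = 1) :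
    Preserves q A := by
  intro u v
  rw [herm_left hF, Matrix.mulVec_mulVec, h, Matrix.one_mulVec]

theorem adj_of_preserves {A : M3} (hF : Fintype.card F = q ^ 2) (h : Preserves q A) :
    adj q A * A = 1 := by
  ext i j
  rw [adj_mul_apply]
  have h1 := h (Pi.single j 1) (Pi.single i 1)
  rw [mulVec_single_col, mulVec_single_col, hermForm_single_single hF] at h1
  rw [h1]
  simp [Matrix.one_apply, eq_comm]

/-! ### The field: characteristic three -/

theorem charP_three {a : ℕ} (hF : Fintype.card F = q ^ 2) (ha : 1 ≤ a) (hq : q = 3 ^ a) :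
    CharP F 3 := by
  obtain ⟨p, hp⟩ := CharP.exists F
  obtain ⟨m, hpr, hm⟩ := FiniteField.card F p
  have h3 : (3 : ℕ) ∣ p ^ (m : ℕ) := by
    rw [← hm, hF, hq]
    exact dvd_pow (dvd_pow_self 3 (by omega)) (by norm_num)
  have : 3 = p := (Nat.prime_dvd_prime_iff_eq Nat.prime_three hpr).1 (Nat.Prime.dvd_of_dvd_pow Nat.prime_three h3)
  rw [this]
  exact hp

section Char3

variable [CharP F 3]

theorem three_eq_zero : (3 : F) = 0 := by
  have := CharP.cast_eq_zero F 3
  exact_mod_cast this

theorem cube_sub (x y : F) : (x - y) ^ 3 = x ^ 3 - y ^ 3 := by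
  linear_combination (- x ^ 2 * y + x * y ^ 2) * (three_eq_zero (F := F))

theorem cube_inj {x y : F} (h : x ^ 3 = y ^ 3) : x = y := by
  have : (x - y) ^ 3 = 0 := by rw [cube_sub, h, sub_self]
  exact sub_eq_zero.1 (pow_eq_zero_iff (by norm_num) |>.1 this)

/-- Cube roots exist. -/
theorem exists_cube_root {a : ℕ} (hF : Fintype.card F = q ^ 2) (ha : 1 ≤ a) (hq : q = 3 ^ a) (d : F) :
    ∃ z : F, z ^ 3 = d := by
  refine ⟨d ^ (3 ^ (2 * a - 1)), ?_⟩
  rw [← pow_mul]
  have : 3 ^ (2 * a - 1) * 3 = Fintype.card F := by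
    rw [hF, hq, ← pow_mul, ← pow_succ]
    congr 1
    omega
  rw [this, FiniteField.pow_card]

/-- An Artin--Schreier constant. -/
theorem exists_const {a : ℕ} (hF : Fintype.card F = q ^ 2) (ha : 1 ≤ a) (hq : q = 3 ^ a) :
    ∃ c : F, c ^ q = c ∧ ∀ x : F, x ^ 3 - x ≠ c := by
  classical
  -- the fixed points of `σ`, on which `℘` is not injective
  let S : Set F := {x | x ^ q = x}
  have hS3 : ∀ x ∈ S, x ^ 3 - x ∈ S := by
    intro x hx
    change (x ^ 3 - x) ^ q = _
    have hx' : x ^ q = x := hx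
    rw [pow_q_sub hF, ← pow_mul, mul_comm, pow_mul, hx']
  let f : S → S := fun x => ⟨x.1 ^ 3 - x.1, hS3 x.1 x.2⟩
  have hq0 : q ≠ 0 := by have := two_le_q hF; omega
  have h0 : (0 : F) ∈ S := by
    change (0 : F) ^ q = 0
    exact zero_pow hq0
  have h1 : (1 : F) ∈ S := by
    change (1 : F) ^ q = 1
    exact one_pow q
  have hninj : ¬ Function.Injective f := by
    intro hinj
    have h2 : f ⟨0, h0⟩ = f ⟨1, h1⟩ := by
      apply Subtype.ext
      simp [f]
    have := hinj h2
    have h3 : (0 : F) = 1 := congrArg Subtype.val this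
    exact zero_ne_one h3
  have hnsurj : ¬ Function.Surjective f := by
    intro hs
    exact hninj (Finite.injective_iff_surjective.2 hs)
  simp only [Function.Surjective, not_forall, not_exists] at hnsurj
  obtain ⟨⟨c, hc⟩, hcn⟩ := hnsurj
  refine ⟨c, hc, fun x hx => ?_⟩
  -- `x ^ q - x` is a root of `X^3 - X`
  have hc' : c ^ q = c := hc
  have hk : (x ^ q - x) ^ 3 - (x ^ q - x) = 0 := by
    have h2 : (x ^ 3 - x) ^ q = c := by rw [hx, hc']
    rw [pow_q_sub hF, ← pow_mul, mul_comm, pow_mul] at h2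
    rw [cube_sub]
    linear_combination h2 - hx
  set k := x ^ q - x with hkdef
  have hk' : x ^ q = x + k := by rw [hkdef]; ring
  have hxx : (x ^ q) ^ q = x := pow_q_pow_q hF x
  have hkq : k ^ q = k := by
    have hk3 : k * (k - 1) * (k + 1) = 0 := by linear_combination hk
    have hm : (-1 : F) ^ q = -1 := by rw [pow_q_neg hF, one_pow]
    rcases mul_eq_zero.1 hk3 with h | h
    · rcases mul_eq_zero.1 h with h | h
      · rw [h, zero_pow hq0]
      · rw [sub_eq_zero.1 h, one_pow]
    · have : k = -1 := by linear_combination h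
      rw [this, hm]
  have h2k : 2 * k = 0 := by
    have h3 : (x + k) ^ q = x := by rw [← hk', hxx]
    rw [pow_q_add hF, hk', hkq] at h3
    linear_combination h3
  have hk0 : k = 0 := by
    have : k = 3 * k - 2 * k := by ring
    rw [this, h2k, three_eq_zero]
    ring
  have hxS : x ^ q = x := by rw [hk', hk0, add_zero]
  apply hcn ⟨x, hxS⟩
  apply Subtype.ext
  exact hx

end Char3

end Cfsg.Agent.Lib.Cover2.PSU3
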