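/-
Norms from the degree-three Artin--Schreier extension of `F`.
-/
import Mathlib
import Cfsg.Agent.Lib.Cover2.PSU3.Adj

set_option autoImplicit false
set_option linter.unusedSectionVars false
set_option linter.unusedSimpArgs false
set_option linter.unusedVariables false

open scoped Matrix
open Polynomial Cfsg
open Cfsg.Agent.Lib.Classical.Herm.Basic

namespace Cfsg.Agent.Lib.Cover2.PSU3

variable {F : Type*} [Field F] [Fintype F] {q : ℕ}

/-- The Artin--Schreier cubic. -/
noncomputable def cubic (c : F) : F[X] := X ^ 3 - X - C c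

theorem cubic_monic (c : F) : (cubic c).Monic := by
  unfold cubic
  monicity!

theorem cubic_natDegree (c : F) : (cubic c).natDegree = 3 := by
  unfold cubic
  compute_degree!

theorem cubic_irreducible {c : F} (hc : ∀ x : F, x ^ 3 - x ≠ c) : Irreducible (cubic c) := by
  apply Polynomial.irreducible_of_degree_le_three_of_not_isRoot
  · rw [cubic_natDegree]
    simp
  · intro x hx
    apply hc x
    simp only [cubic, IsRoot.def, eval_sub, eval_pow, eval_X, eval_C] at hx
    exact sub_eq_zero.1 hx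

theorem cyc_root {G : Type*} [Group G] [Finite G] [IsCyclic G] {A B : ℕ} (hA : 0 < A)
    (hcard : Nat.card G = A * B) (x : G) (hx : x ^ A = 1) : ∃ y : G, y ^ B = x := by
  obtain ⟨γ, hγ⟩ := IsCyclic.exists_monoid_generator (α := G)
  obtain ⟨m, rfl⟩ := (Submonoid.mem_powers_iff _ _).1 (hγ x)
  have ho : orderOf γ = A * B := by
    rw [← hcard]
    apply orderOf_eq_card_of_forall_mem_zpowers
    intro y
    obtain ⟨k, rfl⟩ := (Submonoid.mem_powers_iff _ _).1 (hγ y)
    exact ⟨k, by simp⟩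
  have h1 : orderOf γ ∣ m * A := by
    apply orderOf_dvd_of_pow_eq_one
    rw [pow_mul, hx]
  rw [ho, mul_comm A B] at h1
  have h2 : B ∣ m := Nat.dvd_of_mul_dvd_mul_right hA h1
  obtain ⟨k, rfl⟩ := h2
  exact ⟨γ ^ k, by rw [← pow_mul, mul_comm]⟩

section Char3

variable [CharP F 3]

theorem norm_poly {a : ℕ} (hF : Fintype.card F = q ^ 2) (ha : 1 ≤ a) (hq : q = 3 ^ a) {c : F}
    (hc : c ^ q = c) (hirr : Irreducible (cubic c)) (t : F[X])
    (htm : t.map (sigma hF) = t) (ht : ¬ cubic c ∣ t) :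
    ∃ p : F[X], cubic c ∣ p.map (sigma hF) * p - t := by
  classical
  haveI : Fact (Irreducible (cubic c)) := ⟨hirr⟩
  have hne : cubic c ≠ 0 := hirr.ne_zero
  let R := AdjoinRoot (cubic c)
  haveI hmf : Module.Finite F R := (AdjoinRoot.powerBasis hne).finite
  haveI hfin : Finite R := Module.finite_of_finite F
  letI : Fintype R := Fintype.ofFinite R
  have hfr : Module.finrank F R = 3 := by
    rw [(AdjoinRoot.powerBasis hne).finrank, AdjoinRoot.powerBasis_dim, cubic_natDegree]
  have hcardR : Fintype.card R = (q ^ 3) ^ 2 := by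
    rw [Module.card_eq_pow_finrank (K := F) (V := R), hfr, hF]
    ring
  haveI hchar : CharP R 3 := charP_of_injective_algebraMap (algebraMap F R).injective 3
  haveI hp3 : Fact (Nat.Prime 3) := ⟨Nat.prime_three⟩
  have hqq : q ^ 3 = 3 ^ (3 * a) := by rw [hq, ← pow_mul, mul_comm]
  -- the ring homomorphism `x ↦ x ^ (q ^ 3)`
  let Ψ : R →+* R := iterateFrobenius R 3 (3 * a)
  have hΨ : ∀ x : R, Ψ x = x ^ (q ^ 3) := fun x => by
    rw [hqq]
    exact iterateFrobenius_def 3 (3 * a) x
  have hq0 : q ≠ 0 := by have := two_le_q hF; omega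
  -- on constants
  have hof : ∀ x : F, Ψ (AdjoinRoot.of (cubic c) x) = AdjoinRoot.of (cubic c) (x ^ q) := by
    intro x
    rw [hΨ, ← map_pow]
    congr 1
    have h1 : x ^ (q ^ 2) = x := by rw [← hF]; exact FiniteField.pow_card x
    rw [show q ^ 3 = q ^ 2 * q by ring, pow_mul, h1]
  set ξ := AdjoinRoot.root (cubic c) with hξ
  have hroot : ξ ^ 3 - ξ - AdjoinRoot.of (cubic c) c = 0 := by
    have h : AdjoinRoot.mk (cubic c) (X ^ 3 - X - C c) = 0 := AdjoinRoot.mk_self
    rw [map_sub, map_sub, map_pow] at h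
    exact h
  -- Frobenius of the root
  have hfrobq : ∀ x y : R, (x + y) ^ q = x ^ q + y ^ q := fun x y => by
    rw [hq]
    exact add_pow_char_pow x y 3 a
  have hfrobs : ∀ x y : R, (x - y) ^ q = x ^ q - y ^ q := fun x y => by
    rw [hq]
    exact sub_pow_char_pow x y a
  have h3R : (3 : R) = 0 := by
    have := CharP.cast_eq_zero R 3
    exact_mod_cast this
  have hξq : ∃ k : R, ξ ^ q = ξ + k ∧ k ^ q = k ∧ 3 * k = 0 := by
    have h1 : (ξ ^ q) ^ 3 - ξ ^ q - AdjoinRoot.of (cubic c) c = 0 := by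
      have h2 := congrArg (· ^ q) hroot
      simp only [hfrobs, zero_pow hq0] at h2
      rw [← map_pow, hc, ← pow_mul, mul_comm 3 q, pow_mul] at h2
      exact h2
    set k := ξ ^ q - ξ with hk
    have hk1 : k * (k - 1) * (k + 1) = 0 := by
      have h4 : k ^ 3 - k = 0 := by
        have h5 : k ^ 3 = (ξ ^ q) ^ 3 - ξ ^ 3 := by
          rw [hk]
          linear_combination (- (ξ ^ q) ^ 2 * ξ + ξ ^ q * ξ ^ 2) * h3R
        rw [h5, hk]
        linear_combination h1 - hroot
      linear_combination h4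
    have hm : (-1 : R) ^ q = -1 := by
      rw [hq]
      exact Odd.neg_one_pow (Odd.pow (by decide))
    refine ⟨k, by rw [hk]; ring, ?_, ?_⟩
    · rcases mul_eq_zero.1 hk1 with h | h
      · rcases mul_eq_zero.1 h with h | h
        · rw [h, zero_pow hq0]
        · rw [sub_eq_zero.1 h, one_pow]
      · have : k = -1 := by linear_combination h
        rw [this, hm]
    · rw [h3R, zero_mul]
  obtain ⟨k, hk1, hk2, hk3⟩ := hξq
  have hΨξ : Ψ ξ = ξ := by
    rw [hΨ, show q ^ 3 = q * q * q by ring, pow_mul, pow_mul, hk1, hfrobq, hk2, hk1, hfrobq, hfrobq,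
      hk2, hk1]
    linear_combination hk3
  -- on all polynomials
  have hmk : ∀ p : F[X], Ψ (AdjoinRoot.mk (cubic c) p) = AdjoinRoot.mk (cubic c) (p.map (sigma hF)) := by
    intro p
    induction p using Polynomial.induction_on' with
    | add p p' h h' => simp only [map_add, Polynomial.map_add, h, h']
    | monomial n x =>
      rw [← C_mul_X_pow_eq_monomial, Polynomial.map_mul, Polynomial.map_pow, Polynomial.map_C,
        Polynomial.map_X, map_mul, map_mul, map_pow, map_pow, map_mul, map_pow]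
      have h1 : AdjoinRoot.mk (cubic c) (C x) = AdjoinRoot.of (cubic c) x := rfl
      have h2 : AdjoinRoot.mk (cubic c) (C (sigma hF x)) = AdjoinRoot.of (cubic c) (x ^ q) := rfl
      have h3 : AdjoinRoot.mk (cubic c) X = ξ := rfl
      rw [h1, h2, h3, hof, hΨξ]
  -- the element
  set t' := AdjoinRoot.mk (cubic c) t with ht'
  have ht0 : t' ≠ 0 := by
    rw [ht', Ne, AdjoinRoot.mk_eq_zero]
    exact ht
  have hfix : t' ^ (q ^ 3) = t' := by
    rw [← hΨ, ht', hmk, htm]
  have hq3 : 2 ≤ q ^ 3 := by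
    have := two_le_q hF
    calc 2 ≤ q := this
      _ ≤ q ^ 3 := Nat.le_self_pow (by norm_num) q
  let u : Rˣ := Units.mk0 t' ht0
  have hu : u ^ (q ^ 3 - 1) = 1 := by
    apply Units.ext
    simp only [Units.val_pow_eq_pow_val, Units.val_one, u, Units.val_mk0]
    have h1 : t' ^ (q ^ 3 - 1) * t' = t' := by
      rw [← pow_succ, Nat.sub_add_cancel (by omega), hfix]
    exact mul_right_cancel₀ ht0 (by rw [h1, one_mul])
  have hcu : Nat.card Rˣ = (q ^ 3 - 1) * (q ^ 3 + 1) := by
    rw [Nat.card_eq_fintype_card, Fintype.card_units, hcardR]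
    have := Nat.sq_sub_sq (q ^ 3) 1
    rw [one_pow] at this
    rw [this, mul_comm]
  obtain ⟨y, hy⟩ := cyc_root (A := q ^ 3 - 1) (B := q ^ 3 + 1) (by omega) hcu u hu
  obtain ⟨p, hp⟩ := AdjoinRoot.mk_surjective (y : R)
  refine ⟨p, ?_⟩
  rw [← AdjoinRoot.mk_eq_zero, map_sub, map_mul, ← hmk, hp, hΨ]
  have h1 : ((y : R)) ^ (q ^ 3 + 1) = t' := by
    have := congrArg (Units.val) hy
    simpa [u] using this
  rw [← pow_succ, h1, sub_self]

end Char3

end Cfsg.Agent.Lib.Cover2.PSU3
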