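/-
Self-adjoint roots of the Artin--Schreier cubic form one class under `SU₃`.
-/
import Mathlib
import Cfsg.Agent.Lib.Cover2.PSU3.Norm

set_option autoImplicit false
set_option linter.unusedSectionVars false
set_option linter.unusedSimpArgs false
set_option linter.unusedVariables false

open scoped Matrix
open Polynomial Cfsg
open Cfsg.Agent.Lib.Classical.Herm.Basic Cfsg.Agent.Lib.Classical.Herm.GU
open Cfsg.Agent.Lib.Classical.Herm.SU

namespace Cfsg.Agent.Lib.Cover2.PSU3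

variable {F : Type*} [Field F] [Fintype F] {q : ℕ}

local notation "M3" => Matrix (Fin 3) (Fin 3) F
local notation "⟪" x ", " y "⟫" => hermForm _ _ q x y

theorem aeval_adj (hF : Fintype.card F = q ^ 2) {ω : M3} (hω : adj q ω = ω) (p : F[X]) :
    adj q (aeval ω p) = aeval ω (p.map (sigma hF)) := by
  induction p using Polynomial.induction_on' with
  | add p p' h h' => simp only [map_add, Polynomial.map_add, adj_add hF, h, h']
  | monomial n x =>
    simp only [Polynomial.map_monomial, aeval_monomial, Algebra.algebraMap_eq_smul_one, smul_mul_assoc,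
      one_mul]
    rw [adj_smul, adj_pow hF, hω]
    rfl

theorem aeval_cubic {c : F} {ω : M3} (h : ω ^ 3 = ω + c • 1) : aeval ω (cubic c) = 0 := by
  simp [cubic, h, Algebra.algebraMap_eq_smul_one]

/-- Modulo an irreducible annihilator, a polynomial evaluates to zero or a unit. -/
theorem aeval_inv {c : F} {ω : M3} (hirr : Irreducible (cubic c)) (h : aeval ω (cubic c) = 0)
    {r : F[X]} (hr : ¬ cubic c ∣ r) : ∃ r' : F[X], aeval ω r' * aeval ω r = 1 := by
  obtain ⟨u, v, huv⟩ := (hirr.coprime_iff_not_dvd).2 hr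
  refine ⟨v, ?_⟩
  have := congrArg (aeval ω) huv
  simpa [h] using this

theorem not_dvd_of_low {c : F} {r : F[X]} (h0 : r ≠ 0) (hd : r.natDegree < 3) : ¬ cubic c ∣ r := by
  intro hdvd
  apply h0
  apply Polynomial.eq_zero_of_dvd_of_natDegree_lt hdvd
  rw [cubic_natDegree]
  exact hd

/-- A polynomial of degree at most two. -/
noncomputable def low (a0 a1 a2 : F) : F[X] := C a0 + C a1 * X + C a2 * X ^ 2

theorem low_natDegree (a0 a1 a2 : F) : (low a0 a1 a2).natDegree < 3 := by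
  unfold low
  compute_degree!

theorem low_ne_zero {a0 a1 a2 : F} (h : ¬ (a0 = 0 ∧ a1 = 0 ∧ a2 = 0)) : low a0 a1 a2 ≠ 0 := by
  intro h0
  apply h
  have h1 := congrArg (fun p => p.coeff 0) h0
  have h2 := congrArg (fun p => p.coeff 1) h0
  have h3 := congrArg (fun p => p.coeff 2) h0
  simp [low, coeff_X, coeff_C] at h1 h2 h3
  exact ⟨h1, h2, h3⟩

theorem aeval_low (a0 a1 a2 : F) (ω : M3) :
    aeval ω (low a0 a1 a2) = a0 • 1 + a1 • ω + a2 • ω ^ 2 := by
  simp [low, Algebra.algebraMap_eq_smul_one]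

theorem exists_sol (hF : Fintype.card F = q ^ 2) (b0 b1 b2 b3 : F) (h0 : b0 ^ q = b0) (h1 : b1 ^ q = b1)
    (h2 : b2 ^ q = b2) (h3 : b3 ^ q = b3) :
    ∃ a0 a1 a2 : F, a0 ^ q = a0 ∧ a1 ^ q = a1 ∧ a2 ^ q = a2 ∧ ¬ (a0 = 0 ∧ a1 = 0 ∧ a2 = 0) ∧
      a0 * b0 + a1 * b1 + a2 * b2 = 0 ∧ a0 * b1 + a1 * b2 + a2 * b3 = 0 := by
  have hq0 : q ≠ 0 := by have := two_le_q hF; omega
  by_cases hc : (b1 * b3 - b2 ^ 2 = 0 ∧ b2 * b1 - b0 * b3 = 0 ∧ b0 * b2 - b1 ^ 2 = 0)
  · obtain ⟨hx, hy, hz⟩ := hc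
    by_cases hb1 : b1 = 0
    · have hb2 : b2 = 0 := by
        rw [hb1, zero_mul, zero_sub, neg_eq_zero] at hx
        exact pow_eq_zero_iff (by norm_num) |>.1 hx
      refine ⟨0, 1, 0, zero_pow hq0, one_pow q, zero_pow hq0, by simp, ?_, ?_⟩
      · rw [hb1]; ring
      · rw [hb2]; ring
    · refine ⟨b1, -b0, 0, h1, by rw [pow_q_neg hF, h0], zero_pow hq0, fun h => hb1 h.1, ?_, ?_⟩
      · ring
      · linear_combination -hz
  · refine ⟨b1 * b3 - b2 ^ 2, b2 * b1 - b0 * b3, b0 * b2 - b1 ^ 2, ?_, ?_, ?_, hc, by ring, by ring⟩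
    · rw [pow_q_sub hF, mul_pow, h1, h3, ← pow_mul, mul_comm 2 q, pow_mul, h2]
    · rw [pow_q_sub hF, mul_pow, mul_pow, h1, h2, h3, h0]
    · rw [pow_q_sub hF, mul_pow, h0, h2, ← pow_mul, mul_comm 2 q, pow_mul, h1]

/-- The matrix with columns `v, ωv, ω²v`. -/
def colM (ω : M3) (v : Fin 3 → F) : M3 :=
  (Matrix.of ![v, ω *ᵥ v, ω *ᵥ (ω *ᵥ v)])ᵀ

theorem colM_mulVec (ω : M3) (v y : Fin 3 → F) :
    colM ω v *ᵥ y = y 0 • v + y 1 • (ω *ᵥ v) + y 2 • (ω *ᵥ (ω *ᵥ v)) := by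
  funext i
  have e : ∀ x : Fin 3 → F, (colM ω v *ᵥ x) i =
      colM ω v i 0 * x 0 + colM ω v i 1 * x 1 + colM ω v i 2 * x 2 := by
    intro x
    simp only [Matrix.mulVec, dotProduct, Fin.sum_univ_three]
  rw [e]
  show v i * y 0 + (ω *ᵥ v) i * y 1 + (ω *ᵥ (ω *ᵥ v)) i * y 2 = _
  simp only [Pi.add_apply, Pi.smul_apply, smul_eq_mul]
  ring

/-- Nonzero vectors are cyclic. -/
theorem colM_inj {c : F} {ω : M3} (hirr : Irreducible (cubic c)) (h : ω ^ 3 = ω + c • 1)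
    {v : Fin 3 → F} (hv : v ≠ 0) {y : Fin 3 → F} (hy : colM ω v *ᵥ y = 0) : y = 0 := by
  by_contra hy0
  have hne : ¬ (y 0 = 0 ∧ y 1 = 0 ∧ y 2 = 0) := by
    rintro ⟨h0, h1, h2⟩
    apply hy0
    funext i
    fin_cases i <;> simp [h0, h1, h2]
  obtain ⟨r', hr'⟩ := aeval_inv hirr (aeval_cubic h) (r := low (y 0) (y 1) (y 2))
    (not_dvd_of_low (low_ne_zero hne) (low_natDegree _ _ _))
  apply hv
  have h1 : aeval ω (low (y 0) (y 1) (y 2)) *ᵥ v = 0 := by
    rw [aeval_low, ← hy, colM_mulVec]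
    simp only [Matrix.add_mulVec, Matrix.smul_mulVec, Matrix.one_mulVec, pow_two, Matrix.mulVec_mulVec]
  have h2 := congrArg (fun z => aeval ω r' *ᵥ z) h1
  simp only [Matrix.mulVec_mulVec, hr', Matrix.one_mulVec, Matrix.mulVec_zero] at h2
  exact h2

theorem herm_self_fixed (hF : Fintype.card F = q ^ 2) {A : M3} (hA : adj q A = A) (u : Fin 3 → F) :
    ⟪A *ᵥ u, u⟫ ^ q = ⟪A *ᵥ u, u⟫ := by
  rw [hermForm_pow_q hF, herm_right hF, hA]

section Char3

variable [CharP F 3]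

/-- The normal form of a vector for `ω`. -/
theorem exists_normal {a : ℕ} (hF : Fintype.card F = q ^ 2) (ha : 1 ≤ a) (hq : q = 3 ^ a) {c : F}
    (hc : c ^ q = c) (hirr : Irreducible (cubic c)) {ω : M3} (hω : adj q ω = ω)
    (h3 : ω ^ 3 = ω + c • 1) :
    ∃ v : Fin 3 → F, ⟪v, v⟫ = 0 ∧ ⟪ω *ᵥ v, v⟫ = 0 ∧ ⟪ω *ᵥ (ω *ᵥ v), v⟫ = 1 := by
  classical
  have hq0 : q ≠ 0 := by have := two_le_q hF; omega
  let u0 : Fin 3 → F := Pi.single 0 1
  have hu0 : u0 ≠ 0 := by
    intro h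
    have := congrFun h 0
    simp [u0] at this
  have hω2 : adj q (ω ^ 2) = ω ^ 2 := by rw [adj_pow hF, hω]
  have hω3 : adj q (ω ^ 3) = ω ^ 3 := by rw [adj_pow hF, hω]
  have hone : adj q (1 : M3) = 1 := adj_one hF
  have hb0 := herm_self_fixed hF hone u0
  have hb1 := herm_self_fixed hF hω u0
  have hb2 := herm_self_fixed hF hω2 u0
  have hb3 := herm_self_fixed hF hω3 u0
  obtain ⟨a0, a1, a2, ha0, ha1, ha2, hne, hs1, hs2⟩ := exists_sol hF _ _ _ _ hb0 hb1 hb2 hb3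
  set t := low a0 a1 a2 with ht
  have htm : t.map (sigma hF) = t := by
    simp [ht, low, ha0, ha1, ha2, Polynomial.map_add, Polynomial.map_mul, Polynomial.map_pow]
  have htd : ¬ cubic c ∣ t := not_dvd_of_low (low_ne_zero hne) (low_natDegree _ _ _)
  obtain ⟨p, hp⟩ := norm_poly hF ha hq hc hirr t htm htd
  have hcub := aeval_cubic h3
  set P := aeval ω p with hP
  have hadjP : adj q P = aeval ω (p.map (sigma hF)) := aeval_adj hF hω p
  have hPP : adj q P * P = a0 • 1 + a1 • ω + a2 • ω ^ 2 := by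
    obtain ⟨d, hd⟩ := hp
    have h1 : p.map (sigma hF) * p = t + cubic c * d := by rw [← hd]; ring
    rw [hadjP, hP, ← map_mul, h1, map_add, map_mul, hcub, zero_mul, add_zero, ht, aeval_low]
  have hcomm : Commute (adj q P) ω := by
    rw [hadjP]
    have := (Commute.all (p.map (sigma hF)) (X : F[X])).map (aeval ω)
    rwa [aeval_X] at this
  set v := P *ᵥ u0 with hv
  have hform : ∀ A : M3, Commute (adj q P) A → ⟪A *ᵥ v, v⟫ = a0 * ⟪A *ᵥ u0, u0⟫ + a1 * ⟪(A * ω) *ᵥ u0, u0⟫ + a2 * ⟪(A * ω ^ 2) *ᵥ u0, u0⟫ := by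
    intro A hA
    have h1 : ⟪A *ᵥ v, v⟫ = ⟪(A * (adj q P * P)) *ᵥ u0, u0⟫ := by
      rw [hv, herm_right hF, Matrix.mulVec_mulVec, Matrix.mulVec_mulVec, hA.eq, mul_assoc]
    rw [h1, hPP, mul_add, mul_add, mul_smul_comm, mul_smul_comm, mul_smul_comm, mul_one, Matrix.add_mulVec,
      Matrix.add_mulVec, Matrix.smul_mulVec, Matrix.smul_mulVec, Matrix.smul_mulVec,
      hermForm_add_left, hermForm_add_left, hermForm_smul_left, hermForm_smul_left,
      hermForm_smul_left]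
  have h00 : ⟪v, v⟫ = 0 := by
    have := hform 1 (Commute.one_right _)
    rw [one_mul, one_mul, hs1, Matrix.one_mulVec] at this
    exact this
  have h01 : ⟪ω *ᵥ v, v⟫ = 0 := by
    have := hform ω hcomm
    rw [← pow_two, ← pow_succ', hs2] at this
    exact this
  have hv0 : v ≠ 0 := by
    intro h0
    obtain ⟨r', hr'⟩ := aeval_inv hirr hcub htd
    have e1 : aeval ω t = adj q P * P := by rw [hPP, ht, aeval_low]
    rw [e1] at hr'
    apply hu0
    have e2 : (aeval ω r' * (adj q P * P)) *ᵥ u0 = u0 := by rw [hr', Matrix.one_mulVec]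
    rw [← e2, ← Matrix.mulVec_mulVec, ← Matrix.mulVec_mulVec, ← hv, h0, Matrix.mulVec_zero,
      Matrix.mulVec_zero]
  set a2' := ⟪ω *ᵥ (ω *ᵥ v), v⟫ with ha2'
  have ha20 : a2' ≠ 0 := by
    intro h0
    apply hv0
    have hinj : Function.Injective (colM ω v).mulVec := by
      intro y y' hyy
      have : y - y' = 0 := colM_inj hirr h3 hv0 (by rw [Matrix.mulVec_sub, hyy, sub_self])
      exact sub_eq_zero.1 this
    have hsurj := Matrix.mulVec_surjective_iff_isUnit.2 (Matrix.mulVec_injective_iff_isUnit.1 hinj)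
    apply hermForm_nondegenerate_right hF 3 v
    intro x
    obtain ⟨y, rfl⟩ := hsurj x
    rw [colM_mulVec, hermForm_add_left, hermForm_add_left, hermForm_smul_left, hermForm_smul_left,
      hermForm_smul_left, h00, h01, ← ha2', h0]
    ring
  have ha2f : a2' ^ q = a2' := by
    have := herm_self_fixed hF hω2 v
    rwa [pow_two, ← Matrix.mulVec_mulVec] at this
  have hinvf : (a2'⁻¹) ^ q = a2'⁻¹ := by rw [inv_pow, ha2f]
  obtain ⟨α, hα⟩ := exists_norm_eq hF (a2'⁻¹) (inv_ne_zero ha20) hinvf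
  refine ⟨α • v, ?_, ?_, ?_⟩
  · rw [hermForm_smul_left, hermForm_smul_right, h00]
    ring
  · rw [Matrix.mulVec_smul, hermForm_smul_left, hermForm_smul_right, h01]
    ring
  · rw [Matrix.mulVec_smul, Matrix.mulVec_smul, hermForm_smul_left, hermForm_smul_right, ← ha2']
    have : α * (α ^ q * a2') = α ^ (q + 1) * a2' := by ring
    rw [this, hα, inv_mul_cancel₀ ha20]

/-- Any two self-adjoint roots are conjugate under `SU₃`. -/
theorem exists_conj {a : ℕ} (hF : Fintype.card F = q ^ 2) (ha : 1 ≤ a) (hq : q = 3 ^ a) {c : F}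
    (hc : c ^ q = c) (hirr : Irreducible (cubic c)) {ω ω' : M3} (hω : adj q ω = ω)
    (h3 : ω ^ 3 = ω + c • 1) (hω' : adj q ω' = ω') (h3' : ω' ^ 3 = ω' + c • 1) :
    ∃ x : SU 3 F q, ((x : Matrix.SpecialLinearGroup (Fin 3) F) : M3) * ω =
      ω' * ((x : Matrix.SpecialLinearGroup (Fin 3) F) : M3) := by
  classical
  -- the Gram matrix of a normal vector
  have gram : ∀ {w : M3} {v : Fin 3 → F}, adj q w = w → w ^ 3 = w + c • 1 → ⟪v, v⟫ = 0 →
      ⟪w *ᵥ v, v⟫ = 0 → ⟪w *ᵥ (w *ᵥ v), v⟫ = 1 →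
      adj q (colM w v) * colM w v = !![0, 0, 1; 0, 1, 0; 1, 0, 1] := by
    intro w v hw hw3 h0 h1 h2
    have shift : ∀ x y : Fin 3 → F, ⟪x, w *ᵥ y⟫ = ⟪w *ᵥ x, y⟫ := fun x y => by
      rw [herm_right hF, hw]
    have hcub : ∀ x : Fin 3 → F, w *ᵥ (w *ᵥ (w *ᵥ x)) = w *ᵥ x + c • x := by
      intro x
      rw [Matrix.mulVec_mulVec, Matrix.mulVec_mulVec, ← pow_two, ← pow_succ, hw3, Matrix.add_mulVec,
        Matrix.smul_mulVec, Matrix.one_mulVec]
    have h3' : ⟪w *ᵥ (w *ᵥ (w *ᵥ v)), v⟫ = 0 := by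
      rw [hcub, hermForm_add_left, hermForm_smul_left, h1, h0]
      ring
    have h4 : ⟪w *ᵥ (w *ᵥ (w *ᵥ (w *ᵥ v))), v⟫ = 1 := by
      rw [hcub, hermForm_add_left, hermForm_smul_left, h2, h1]
      ring
    ext i j
    rw [adj_mul_apply]
    have e0 : (fun k => colM w v k 0) = v := rfl
    have e1 : (fun k => colM w v k 1) = w *ᵥ v := rfl
    have e2 : (fun k => colM w v k 2) = w *ᵥ (w *ᵥ v) := rfl
    fin_cases i <;> fin_cases j <;> simp only [Fin.zero_eta, Fin.mk_one, Fin.reduceFinMk, e0, e1, e2, shift] <;>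
      simp [-Matrix.mulVec_mulVec, h0, h1, h2, h3', h4]
  have compan : ∀ {w : M3} {v : Fin 3 → F}, w ^ 3 = w + c • 1 →
      w * colM w v = colM w v * !![0, 0, c; 1, 0, 1; 0, 1, 0] := by
    intro w v hw3
    have hcub : w *ᵥ (w *ᵥ (w *ᵥ v)) = w *ᵥ v + c • v := by
      rw [Matrix.mulVec_mulVec, Matrix.mulVec_mulVec, ← pow_two, ← pow_succ, hw3, Matrix.add_mulVec,
        Matrix.smul_mulVec, Matrix.one_mulVec]
    apply Matrix.ext_of_mulVec_single
    intro j
    rw [← Matrix.mulVec_mulVec, ← Matrix.mulVec_mulVec, colM_mulVec, colM_mulVec]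
    fin_cases j
    · simp [-Matrix.mulVec_mulVec, Matrix.mulVec_add, Matrix.mulVec_smul]
    · simp [-Matrix.mulVec_mulVec, Matrix.mulVec_add, Matrix.mulVec_smul]
    · simp [-Matrix.mulVec_mulVec, Matrix.mulVec_add, Matrix.mulVec_smul, hcub, add_comm]
  obtain ⟨v, h0, h1, h2⟩ := exists_normal hF ha hq hc hirr hω h3
  obtain ⟨v', h0', h1', h2'⟩ := exists_normal hF ha hq hc hirr hω' h3'
  set P := colM ω v with hP
  set P' := colM ω' v' with hP'
  have hG := gram hω h3 h0 h1 h2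
  have hG' := gram hω' h3' h0' h1' h2'
  have hC := compan (v := v) h3
  have hC' := compan (v := v') h3'
  rw [← hP] at hG hC
  rw [← hP'] at hG' hC'
  set G0 : M3 := !![0, 0, 1; 0, 1, 0; 1, 0, 1] with hG0
  set C0 : M3 := !![0, 0, c; 1, 0, 1; 0, 1, 0] with hC0
  let Gi : M3 := !![-1, 0, 1; 0, 1, 0; 1, 0, 0]
  have hGi : Gi * G0 = 1 := by
    ext i j
    fin_cases i <;> fin_cases j <;> simp [Gi, hG0, Matrix.mul_apply, Fin.sum_univ_three]
  set Q := Gi * adj q P with hQ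
  have hQP : Q * P = 1 := by rw [hQ, mul_assoc, hG, hGi]
  have hPQ : P * Q = 1 := mul_eq_one_comm.1 hQP
  set x0 := P' * Q with hx0
  have hx0a : adj q x0 * x0 = 1 := by
    have e1 : adj q x0 * x0 = adj q Q * (adj q P' * P') * Q := by
      rw [hx0, adj_mul hF P' Q]
      simp only [mul_assoc]
    rw [e1, hG', ← hG]
    have e2 : adj q Q * (adj q P * P) * Q = adj q (P * Q) * (P * Q) := by
      rw [adj_mul hF P Q]
      simp only [mul_assoc]
    rw [e2, hPQ, adj_one hF, one_mul]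
  have hx0c : x0 * ω = ω' * x0 := by
    have e1 : Q * ω = C0 * Q := by
      calc Q * ω = Q * ω * (P * Q) := by rw [hPQ, mul_one]
        _ = Q * (ω * P) * Q := by simp only [mul_assoc]
        _ = Q * (P * C0) * Q := by rw [hC]
        _ = (Q * P) * C0 * Q := by simp only [mul_assoc]
        _ = C0 * Q := by rw [hQP, one_mul]
    rw [hx0, mul_assoc, e1, ← mul_assoc, ← hC', mul_assoc]
  have hpres : Preserves q x0 := preserves_of_adj hF hx0a
  have hdet := det_pow_succ hF x0 hpres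
  obtain ⟨z, hz⟩ := exists_cube_root hF ha hq x0.det
  have hz0 : z ≠ 0 := by
    rintro rfl
    rw [zero_pow (by norm_num)] at hz
    rw [← hz, zero_pow (by omega)] at hdet
    exact zero_ne_one hdet
  have hzn : z ^ (q + 1) = 1 := by
    apply cube_inj
    rw [one_pow, ← pow_mul, mul_comm, pow_mul, hz, hdet]
  have hdetx : (z⁻¹ • x0).det = 1 := by
    rw [Matrix.det_smul, Fintype.card_fin, ← hz, inv_pow, inv_mul_cancel₀ (pow_ne_zero _ hz0)]
  have hadjx : adj q (z⁻¹ • x0) * (z⁻¹ • x0) = 1 := by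
    rw [adj_smul, smul_mul_smul_comm, hx0a, inv_pow]
    have : (z ^ q)⁻¹ * z⁻¹ = 1 := by
      rw [← mul_inv, mul_comm, ← pow_succ', hzn, inv_one]
    rw [this, one_smul]
  refine ⟨mkSU (z⁻¹ • x0) hdetx (preserves_of_adj hF hadjx), ?_⟩
  rw [coe_mkSU, smul_mul_assoc, hx0c, mul_smul_comm]

end Char3

end Cfsg.Agent.Lib.Cover2.PSU3
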