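/-
An element of `SU₃` without eigenvectors commutes with a self-adjoint root of the Artin--Schreier cubic.
-/
import Mathlib
import Cfsg.Agent.Lib.Cover2.PSU3.Unique

set_option autoImplicit false
set_option linter.unusedSectionVars false
set_option linter.unusedSimpArgs false
set_option linter.unusedVariables false

open scoped Matrix
open Polynomial Cfsg
open Cfsg.Agent.Lib.Classical.Herm.Basic Cfsg.Agent.Lib.Classical.Herm.GU
open Cfsg.Agent.Lib.Classical.Herm.SU

namespace Cfsg.Agent.Lib.Cover2.PSU3

variable {F : Type*} [Field F] [Fintype F] {q : ℕ}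

local notation "M3" => Matrix (Fin 3) (Fin 3) F
local notation "⟪" x ", " y "⟫" => hermForm _ _ q x y

theorem aeval_adj' (hF : Fintype.card F = q ^ 2) (A : M3) (p : F[X]) :
    adj q (aeval A p) = aeval (adj q A) (p.map (sigma hF)) := by
  induction p using Polynomial.induction_on' with
  | add p p' h h' => simp only [map_add, Polynomial.map_add, adj_add hF, h, h']
  | monomial n x =>
    simp only [Polynomial.map_monomial, aeval_monomial, Algebra.algebraMap_eq_smul_one, smul_mul_assoc,
      one_mul]
    rw [adj_smul, adj_pow hF]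
    rfl

theorem charpoly_irreducible {g : M3} (hno : ∀ (μ : F) (v : Fin 3 → F), v ≠ 0 → g *ᵥ v ≠ μ • v) :
    Irreducible g.charpoly := by
  have hdeg : g.charpoly.natDegree = 3 := by
    rw [Matrix.charpoly_natDegree_eq_dim, Fintype.card_fin]
  have hmon : g.charpoly.Monic := Matrix.charpoly_monic g
  apply Polynomial.irreducible_of_degree_le_three_of_not_isRoot
  · rw [hdeg]
    simp
  · intro μ hμ
    rw [IsRoot.def, Matrix.eval_charpoly] at hμ
    obtain ⟨v, hv, hv0⟩ := Matrix.exists_mulVec_eq_zero_iff.2 hμ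
    apply hno μ v hv
    rw [Matrix.sub_mulVec, sub_eq_zero] at hv0
    rw [← hv0, scalar_mulVec']

theorem dvd_of_aeval_zero {χ : F[X]} (hχ : Irreducible χ) {g : M3} (hg : aeval g χ = 0) {f : F[X]}
    (hf : aeval g f = 0) : χ ∣ f := by
  by_contra hd
  obtain ⟨u, v, huv⟩ := (hχ.coprime_iff_not_dvd).2 hd
  have := congrArg (aeval g) huv
  rw [map_add, map_mul, map_mul, hg, hf, mul_zero, mul_zero, add_zero, map_one] at this
  exact zero_ne_one this

section Char3

variable [CharP F 3]

theorem poly_three : (3 : F[X]) = 0 := by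
  have := CharP.cast_eq_zero F[X] 3
  exact_mod_cast this

theorem exists_omega_of_no_eigen (hF : Fintype.card F = q ^ 2) {c : F}
    (hc : c ^ q = c) (hirr : Irreducible (cubic c)) {g : M3} (hg : adj q g * g = 1)
    (hno : ∀ (μ : F) (v : Fin 3 → F), v ≠ 0 → g *ᵥ v ≠ μ • v) :
    ∃ ω : M3, adj q ω = ω ∧ ω ^ 3 = ω + c • 1 ∧ g * ω = (ω + (0 : F) • 1) * g := by
  classical
  have hχ := charpoly_irreducible hno
  have hχ0 : aeval g g.charpoly = 0 := Matrix.aeval_self_charpoly g
  have hdeg : g.charpoly.natDegree = 3 := by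
    rw [Matrix.charpoly_natDegree_eq_dim, Fintype.card_fin]
  obtain ⟨ψ, hψ⟩ := Cfsg.Agent.Lib.Cover2.exists_comp_dvd hirr hχ (by rw [cubic_natDegree, hdeg])
  set ω := aeval g ψ with hω
  have hcomp : ∀ (f : F[X]) (r : F[X]), aeval g (f.comp r) = aeval (aeval g r) f := fun f r => by
    rw [aeval_comp]
  have hcube0 : aeval ω (cubic c) = 0 := by
    rw [hω, ← hcomp]
    obtain ⟨d, hd⟩ := hψ
    rw [hd, map_mul, hχ0, zero_mul]
  have hcube : ω ^ 3 = ω + c • 1 := by
    have : ω ^ 3 - ω - c • 1 = 0 := by
      simpa [cubic, Algebra.algebraMap_eq_smul_one] using hcube0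
    rw [sub_eq_zero, sub_eq_iff_eq_add, add_comm] at this
    exact this
  -- the adjoint of `g` is a polynomial in `g`
  have hXd : ¬ g.charpoly ∣ X := by
    intro hd
    have := Polynomial.natDegree_le_of_dvd hd X_ne_zero
    rw [hdeg, natDegree_X] at this
    omega
  obtain ⟨γ, hγ⟩ : ∃ γ : F[X], aeval g γ * g = 1 := by
    obtain ⟨u, v, huv⟩ := (hχ.coprime_iff_not_dvd).2 hXd
    refine ⟨v, ?_⟩
    have := congrArg (aeval g) huv
    simpa [hχ0] using this
  have hgg' : g * adj q g = 1 := mul_eq_one_comm.1 hg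
  have hγ' : aeval g γ = adj q g := by
    calc aeval g γ = aeval g γ * (g * adj q g) := by rw [hgg', mul_one]
      _ = adj q g := by rw [← mul_assoc, hγ, one_mul]
  set ψ1 := (ψ.map (sigma hF)).comp γ with hψ1
  have hadjω : adj q ω = aeval g ψ1 := by
    rw [hω, aeval_adj' hF, hψ1, hcomp, hγ']
  have hcube1 : (adj q ω) ^ 3 = adj q ω + c • 1 := by
    rw [← adj_pow hF, hcube, adj_add hF, adj_smul, adj_one hF, hc]
  have hdv1 : g.charpoly ∣ (cubic c).comp ψ1 := by
    apply dvd_of_aeval_zero hχ hχ0
    rw [hcomp, ← hadjω]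
    exact aeval_cubic hcube1
  have hdv0 : g.charpoly ∣ (cubic c).comp ψ := hψ
  set η := ψ1 - ψ with hη
  have hfac : g.charpoly ∣ η * ((η - 1) * (η + 1)) := by
    have h1 := dvd_sub hdv1 hdv0
    have h2 : (cubic c).comp ψ1 - (cubic c).comp ψ = η * ((η - 1) * (η + 1)) := by
      simp only [cubic, sub_comp, pow_comp, X_comp, C_comp]
      rw [hη]
      linear_combination (- ψ1 ^ 2 * ψ + ψ1 * ψ ^ 2) * (poly_three (F := F)) * (-1 : F[X])
    rwa [h2] at h1
  have hδ : adj q ω - ω = aeval g η := by
    rw [hη, map_sub, ← hadjω]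
  have hadjδ : adj q (adj q ω - ω) = -(adj q ω - ω) := by
    rw [adj_sub hF, adj_adj hF]
    abel
  have htwo : (2 : F) ≠ 0 := by
    intro h
    have h3 := three_eq_zero (F := F)
    have : (1 : F) = 0 := by linear_combination h3 - h
    exact one_ne_zero this
  have hself : adj q ω = ω := by
    have hprime := hχ.prime
    have hne : ∀ x : F, x ^ q = x → adj q ω - ω = x • (1 : M3) → x = 0 := by
      intro x hx he
      have h1 := hadjδ
      rw [he, adj_smul, adj_one hF, hx] at h1
      have h2 := congrFun (congrFun h1 0) 0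
      simp at h2
      have h3 : 2 * x = 0 := by linear_combination h2
      exact (mul_eq_zero.1 h3).resolve_left htwo
    have hq0 : q ≠ 0 := by have := two_le_q hF; omega
    have hm : (-1 : F) ^ q = -1 := by rw [pow_q_neg hF, one_pow]
    rcases (hprime.dvd_mul).1 hfac with h | h
    · obtain ⟨d, hd⟩ := h
      rw [← sub_eq_zero, hδ, hd, map_mul, hχ0, zero_mul]
    · rcases (hprime.dvd_mul).1 h with h | h
      · exfalso
        obtain ⟨d, hd⟩ := h
        have h1 : aeval g η = (1 : F) • (1 : M3) := by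
          have : aeval g (η - 1) = 0 := by rw [hd, map_mul, hχ0, zero_mul]
          rw [map_sub, map_one, sub_eq_zero] at this
          rw [this, one_smul]
        rw [← hδ] at h1
        exact one_ne_zero (hne 1 (one_pow q) h1)
      · exfalso
        obtain ⟨d, hd⟩ := h
        have h1 : aeval g η = (-1 : F) • (1 : M3) := by
          have : aeval g (η + 1) = 0 := by rw [hd, map_mul, hχ0, zero_mul]
          rw [map_add, map_one, add_eq_zero_iff_eq_neg] at this
          rw [this]
          simp
        rw [← hδ] at h1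
        exact one_ne_zero (neg_eq_zero.1 (hne (-1) hm h1))
  refine ⟨ω, hself, hcube, ?_⟩
  rw [zero_smul, add_zero]
  have := (Commute.all (X : F[X]) ψ).map (aeval g)
  rw [aeval_X] at this
  exact this

end Char3

end Cfsg.Agent.Lib.Cover2.PSU3
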