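/-
Explicit `3 × 3` identities for regular unipotent elements in characteristic three.
-/
import Mathlib
import Cfsg.Agent.Lib.Cover2.PSU3.Adj

set_option autoImplicit false
set_option linter.unusedSectionVars false
set_option linter.unusedSimpArgs false
set_option linter.unusedVariables false

open scoped Matrix
open Cfsg
open Cfsg.Agent.Lib.Classical.Herm.Basic

namespace Cfsg.Agent.Lib.Cover2.PSU3

variable {F : Type*} [Field F] [Fintype F] {q : ℕ}

local notation "M3" => Matrix (Fin 3) (Fin 3) F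

/-- The Gram matrix of a hyperbolic basis. -/
def J3 (F : Type*) [Field F] : Matrix (Fin 3) (Fin 3) F := !![0, 0, 1; 0, 1, 0; 1, 0, 0]

theorem J3_mul_J3 : J3 F * J3 F = 1 := by
  ext i j
  fin_cases i <;> fin_cases j <;> simp [J3, Matrix.mul_apply, Fin.sum_univ_three]

theorem adj_J3 (hF : Fintype.card F = q ^ 2) : adj q (J3 F) = J3 F := by
  have hz := zero_pow_q hF
  ext i j
  fin_cases i <;> fin_cases j <;> simp [J3, hz]

/-- The standard regular unipotent element. -/
def G1 (F : Type*) [Field F] : Matrix (Fin 3) (Fin 3) F := !![1, 1, 1; 0, 1, -1; 0, 0, 1]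

/-- The standard root. -/
def Om (c : F) : M3 := !![0, -1, c; 1, 0, -1; 0, 1, 0]

section Char3
variable [CharP F 3]

theorem Om_cube (c : F) : Om c ^ 3 = Om c + c • 1 := by
  have h3 := three_eq_zero (F := F)
  rw [pow_succ, pow_two]
  ext i j
  fin_cases i <;> fin_cases j <;> simp [Om, Matrix.mul_apply, Fin.sum_univ_three] <;> ring_nf
  all_goals first
    | linear_combination h3
    | linear_combination -h3
    | linear_combination (-c) * h3

theorem J3_adj_Om (hF : Fintype.card F = q ^ 2) {c : F} (hc : c ^ q = c) :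
    J3 F * adj q (Om c) = Om c * J3 F := by
  have hz := zero_pow_q hF
  have hm : (-1 : F) ^ q = -1 := by rw [pow_q_neg hF, one_pow]
  ext i j
  fin_cases i <;> fin_cases j <;> simp [J3, Om, Matrix.mul_apply, Fin.sum_univ_three, hz, hm, hc]

theorem G1_mul_Om (c : F) : G1 F * Om c = (Om c + (1 : F) • 1) * G1 F := by
  have h3 := three_eq_zero (F := F)
  ext i j
  fin_cases i <;> fin_cases j <;> simp [G1, Om, Matrix.mul_apply, Fin.sum_univ_three]
  all_goals linear_combination -h3

theorem id_A (hF : Fintype.card F = q ^ 2) {a z β : F} (ha : a ≠ 0) (hz : z ^ q = -z) (hβ : β = z * z ^ q)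
    (hβq : β ^ q = β) :
    adj q (!![a, z * a, β * a; 0, 1, z; 0, 0, (a ^ q)⁻¹] : M3) * (J3 F * !![a, z * a, β * a; 0, 1, z; 0, 0, (a ^ q)⁻¹]) = J3 F := by
  have h3 := three_eq_zero (F := F)
  have hz0 := zero_pow_q hF
  have haq : a ^ q ≠ 0 := pow_ne_zero _ ha
  ext i j
  fin_cases i <;> fin_cases j <;>
    simp [J3, Matrix.mul_apply, Fin.sum_univ_three, hz0, mul_pow, hz, hβq, pow_q_pow_q hF, ha, haq]
  · field_simp
    ring
  · have e : a⁻¹ * (β * a) = β := by field_simp
    have hβ' : β = -(z * z) := by rw [hβ, hz]; ring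
    rw [e]
    linear_combination β * h3 - hβ'

theorem id_B {a d z β : F} (ha : a ≠ 0) (haq : a ^ q ≠ 0) (hz : z = d / (a * a ^ q) - 1) :
    (!![1, a, d; 0, 1, -a ^ q; 0, 0, 1] : M3) * !![a, z * a, β * a; 0, 1, z; 0, 0, (a ^ q)⁻¹] =
      !![a, z * a, β * a; 0, 1, z; 0, 0, (a ^ q)⁻¹] * G1 F := by
  have h3 := three_eq_zero (F := F)
  ext i j
  fin_cases i <;> fin_cases j <;>
    simp [G1, Matrix.mul_apply, Fin.sum_univ_three, ha, haq]
  · ring
  · have e : d * (a ^ q)⁻¹ = (z + 1) * a := by
      rw [hz]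
      field_simp
      ring
    rw [e]
    linear_combination (z * a) * h3
  · ring

end Char3

end Cfsg.Agent.Lib.Cover2.PSU3
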