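/-
An element of `SU₃` all of whose eigenvectors are isotropic, with at least one eigenvector, is regular unipotent;
it normalises a self-adjoint root of the Artin--Schreier cubic.
-/
import Mathlib
import Cfsg.Agent.Lib.Cover2.PSU3.Unique
import Cfsg.Agent.Lib.Cover2.PSU3.Mats
import Cfsg.Agent.Lib.Classical.Herm.Form

set_option autoImplicit false
set_option linter.unusedSectionVars false
set_option linter.unusedSimpArgs false
set_option linter.unusedVariables false

open scoped Matrix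
open Polynomial Cfsg
open Cfsg.Agent.Lib.Classical.Herm.Basic Cfsg.Agent.Lib.Classical.Herm.GU
open Cfsg.Agent.Lib.Classical.Herm.SU Cfsg.Agent.Lib.Classical.Herm.Form

namespace Cfsg.Agent.Lib.Cover2.PSU3

variable {F : Type*} [Field F] [Fintype F] {q : ℕ}

local notation "M3" => Matrix (Fin 3) (Fin 3) F
local notation "⟪" x ", " y "⟫" => hermForm _ _ q x y

section Char3

variable [CharP F 3]

/-- A hyperbolic basis starting from a nonzero isotropic vector. -/
theorem exists_hyp (hF : Fintype.card F = q ^ 2) {e : Fin 3 → F} (he0 : e ≠ 0) (hiso : ⟪e, e⟫ = 0) :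
    ∃ P : M3, (∀ i, P i 0 = e i) ∧ adj q P * P = J3 F := by
  classical
  have h3 := three_eq_zero (F := F)
  have hq0 : q ≠ 0 := by have := two_le_q hF; omega
  have h2 : (2 : F) ≠ 0 := by
    intro h
    have : (1 : F) = 0 := by linear_combination h3 - h
    exact one_ne_zero this
  obtain ⟨y, hy⟩ : ∃ y, ⟪e, y⟫ ≠ 0 := by
    by_contra hcon
    push Not at hcon
    exact he0 (hermForm_nondegenerate_left hF 3 e hcon)
  obtain ⟨f0, hef0⟩ : ∃ f0, ⟪e, f0⟫ = 1 := by
    refine ⟨((⟪e, y⟫)⁻¹) ^ q • y, ?_⟩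
    rw [hermForm_smul_right, pow_q_pow_q hF, inv_mul_cancel₀ hy]
  have hf0e : ⟪f0, e⟫ = 1 := by
    rw [← hermForm_pow_q hF, hef0, one_pow]
  obtain ⟨f, hef, hff⟩ : ∃ f, ⟪e, f⟫ = 1 ∧ ⟪f, f⟫ = 0 := by
    have hαq : ⟪f0, f0⟫ ^ q = ⟪f0, f0⟫ := hermForm_self_pow_q hF 3 f0
    refine ⟨f0 + ⟪f0, f0⟫ • e, ?_, ?_⟩
    · simp only [hermForm_add_right hF, hermForm_smul_right, hef0, hiso]
      ring
    · simp only [hermForm_add_left, hermForm_add_right hF, hermForm_smul_left, hermForm_smul_right, hef0, hf0e, hiso, hαq]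
      linear_combination ⟪f0, f0⟫ * h3
  have hfe : ⟪f, e⟫ = 1 := by
    rw [← hermForm_pow_q hF, hef, one_pow]
  have hm : (-1 : F) ^ q = -1 := by rw [pow_q_neg hF, one_pow]
  obtain ⟨γ, hγ⟩ := exists_norm_eq hF (-1) (neg_ne_zero.2 one_ne_zero) hm
  have hγ0 : γ ≠ 0 := by
    rintro rfl
    rw [zero_pow (by omega)] at hγ
    exact (neg_ne_zero.2 one_ne_zero) hγ.symm
  have hγn : γ * γ ^ q = -1 := by rw [← hγ]; ring
  let c : Fin 2 → Fin 3 → F := ![γ • (e + f), e + (-1 : F) • f]
  have hc00 : ⟪γ • (e + f), γ • (e + f)⟫ = 1 := by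
    simp only [hermForm_add_left, hermForm_add_right hF, hermForm_smul_left, hermForm_smul_right, hiso, hef, hfe, hff]
    linear_combination 2 * hγn - h3
  have hc01 : ⟪γ • (e + f), e + (-1 : F) • f⟫ = 0 := by
    simp only [hermForm_add_left, hermForm_add_right hF, hermForm_smul_left, hermForm_smul_right, hiso, hef, hfe, hff, hm]
    ring
  have hc10 : ⟪e + (-1 : F) • f, γ • (e + f)⟫ = 0 := by
    simp only [hermForm_add_left, hermForm_add_right hF, hermForm_smul_left, hermForm_smul_right, hiso, hef, hfe, hff, hm]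
    ring
  have hc11 : ⟪e + (-1 : F) • f, e + (-1 : F) • f⟫ = 1 := by
    simp only [hermForm_add_left, hermForm_add_right hF, hermForm_smul_left, hermForm_smul_right, hiso, hef, hfe, hff, hm]
    linear_combination -h3
  have hc : IsFrame q c := by
    intro i j
    fin_cases i <;> fin_cases j
    · simpa [c] using hc00
    · simpa [c] using hc01
    · simpa [c] using hc10
    · simpa [c] using hc11
  obtain ⟨w, hwc, hww⟩ := exists_step hF c hc (by simp)
  have hw1 : ⟪w, e⟫ + ⟪w, f⟫ = 0 := by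
    have h1 := hwc 0
    change ⟪w, γ • (e + f)⟫ = 0 at h1
    rw [hermForm_smul_right, hermForm_add_right hF] at h1
    exact (mul_eq_zero.1 h1).resolve_left (pow_ne_zero _ hγ0)
  have hw2 : ⟪w, e⟫ - ⟪w, f⟫ = 0 := by
    have h1 := hwc 1
    change ⟪w, e + (-1 : F) • f⟫ = 0 at h1
    rw [hermForm_add_right hF, hermForm_smul_right, hm] at h1
    linear_combination h1
  have hwe : ⟪w, e⟫ = 0 := by
    have : 2 * ⟪w, e⟫ = 0 := by linear_combination hw1 + hw2
    exact (mul_eq_zero.1 this).resolve_left h2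
  have hwf : ⟪w, f⟫ = 0 := by linear_combination hw1 - hwe
  have hew : ⟪e, w⟫ = 0 := by rw [← hermForm_pow_q hF, hwe, zero_pow_q hF]
  have hfw : ⟪f, w⟫ = 0 := by rw [← hermForm_pow_q hF, hwf, zero_pow_q hF]
  refine ⟨(Matrix.of ![e, w, f])ᵀ, fun i => rfl, ?_⟩
  ext i j
  rw [adj_mul_apply]
  have e0 : (fun k => ((Matrix.of ![e, w, f])ᵀ : M3) k 0) = e := rfl
  have e1 : (fun k => ((Matrix.of ![e, w, f])ᵀ : M3) k 1) = w := rfl
  have e2 : (fun k => ((Matrix.of ![e, w, f])ᵀ : M3) k 2) = f := rfl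
  fin_cases i <;> fin_cases j <;> simp only [Fin.zero_eta, Fin.mk_one, Fin.reduceFinMk, e0, e1, e2] <;>
    simp [J3, hiso, hef, hfe, hff, hwe, hwf, hew, hfw, hww]

/-- Normal form of a regular unipotent element: existence of the root. -/
theorem exists_omega_of_iso {a : ℕ} (hF : Fintype.card F = q ^ 2) (ha : 1 ≤ a) (hq : q = 3 ^ a) {c : F}
    (hc : c ^ q = c) {g : M3} (hg : adj q g * g = 1) (hdet : g.det = 1) {e : Fin 3 → F} {μ : F}
    (he0 : e ≠ 0) (hiso : ⟪e, e⟫ = 0) (hμ : g *ᵥ e = μ • e)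
    (hno : ∀ (l : F) (v : Fin 3 → F), g *ᵥ v = l • v → ⟪v, v⟫ = 0) :
    ∃ ω : M3, adj q ω = ω ∧ ω ^ 3 = ω + c • 1 ∧ g * ω = (ω + (1 : F) • 1) * g := by
  classical
  have h3 := three_eq_zero (F := F)
  have hq0 : q ≠ 0 := by have := two_le_q hF; omega
  have hz0 := zero_pow_q hF
  obtain ⟨P, hPe, hPP⟩ := exists_hyp hF he0 hiso
  set J := J3 F with hJ
  have hJJ : J * J = 1 := J3_mul_J3
  set Q := J * adj q P with hQ
  have hQP : Q * P = 1 := by rw [hQ, mul_assoc, hPP, hJJ]
  have hPQ : P * Q = 1 := mul_eq_one_comm.1 hQP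
  have hgg' : g * adj q g = 1 := mul_eq_one_comm.1 hg
  set G := Q * g * P with hG
  have hgP : g * P = P * G := by
    rw [hG, ← mul_assoc, ← mul_assoc, hPQ, one_mul]
  have hadjQ : adj q Q = P * J := by
    rw [hQ, adj_mul hF, adj_adj hF, hJ, adj_J3 hF]
  -- the form relation
  have hR : adj q G * (J * G) = J := by
    have e1 : adj q G = adj q P * adj q g * (P * J) := by
      rw [hG, adj_mul hF, adj_mul hF, hadjQ]
      simp only [mul_assoc]
    calc adj q G * (J * G) = adj q P * adj q g * (P * (J * J) * Q) * g * P := by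
          rw [e1, hG]
          simp only [mul_assoc]
      _ = adj q P * (adj q g * g) * P := by
          rw [hJJ, mul_one, hPQ, mul_one]
          simp only [mul_assoc]
      _ = J := by rw [hg, mul_one, hPP]
  -- the first column
  have hPe' : P *ᵥ Pi.single 0 1 = e := by
    funext i
    rw [Matrix.mulVec_single_one]
    exact hPe i
  have hcol : G *ᵥ Pi.single 0 1 = μ • Pi.single 0 1 := by
    have : G *ᵥ Pi.single 0 1 = Q *ᵥ (g *ᵥ (P *ᵥ Pi.single 0 1)) := by
      rw [hG, Matrix.mulVec_mulVec, Matrix.mulVec_mulVec, mul_assoc]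
    rw [this, hPe', hμ, Matrix.mulVec_smul, ← hPe', Matrix.mulVec_mulVec, hQP, Matrix.one_mulVec]
  have hG00 : G 0 0 = μ := by
    have := congrFun hcol 0
    rw [Matrix.mulVec_single_one] at this
    simpa using this
  have hG10 : G 1 0 = 0 := by
    have := congrFun hcol 1
    rw [Matrix.mulVec_single_one] at this
    simpa using this
  have hG20 : G 2 0 = 0 := by
    have := congrFun hcol 2
    rw [Matrix.mulVec_single_one] at this
    simpa using this
  set x12 := G 0 1 with hx12
  set d := G 0 2 with hd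
  set l := G 1 1 with hl
  set s := G 1 2 with hs
  set y := G 2 1 with hy
  set n := G 2 2 with hn
  have hGform : G = !![μ, x12, d; 0, l, s; 0, y, n] := by
    ext i j
    fin_cases i <;> fin_cases j <;> simp [hG00, hG10, hG20, ← hx12, ← hd, ← hl, ← hs, ← hy, ← hn]
  have hRij : ∀ i j, (adj q (!![μ, x12, d; 0, l, s; 0, y, n] : M3) * (J * !![μ, x12, d; 0, l, s; 0, y, n])) i j = J i j := by
    intro i j
    rw [← hGform, hR]
  have hR02 : μ ^ q * n = 1 := by
    have := hRij 0 2
    simpa [hJ, J3, Matrix.mul_apply, Fin.sum_univ_three, hz0] using this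
  have hμ0 : μ ≠ 0 := by
    rintro rfl
    rw [zero_pow hq0, zero_mul] at hR02
    exact zero_ne_one hR02
  have hμq0 : μ ^ q ≠ 0 := pow_ne_zero _ hμ0
  have hR01 : y = 0 := by
    have := hRij 0 1
    simp [hJ, J3, Matrix.mul_apply, Fin.sum_univ_three, hz0] at this
    exact this.resolve_left (fun h => hμ0 h.1)
  rw [hR01] at hGform hRij
  have hR12 : x12 ^ q * n + l ^ q * s = 0 := by
    have := hRij 1 2
    simpa [hJ, J3, Matrix.mul_apply, Fin.sum_univ_three, hz0] using this
  have hR22 : d ^ q * n + s ^ q * s + n ^ q * d = 0 := by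
    have := hRij 2 2
    simpa [hJ, J3, Matrix.mul_apply, Fin.sum_univ_three, hz0] using this
  have hdetG : μ * l * n = 1 := by
    have h1 : G.det = 1 := by
      rw [hG, Matrix.det_mul, Matrix.det_mul, hdet, mul_one, ← Matrix.det_mul, hQP, Matrix.det_one]
    rw [hGform, Matrix.det_fin_three] at h1
    simpa using h1
  -- eigenvectors in coordinates
  have hnorm1 : ∀ κ x : F, G *ᵥ ![κ, 1, 0] ≠ x • ![κ, 1, 0] := by
    intro κ x hκ
    have h1 : g *ᵥ (P *ᵥ ![κ, 1, 0]) = x • (P *ᵥ ![κ, 1, 0]) := by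
      rw [Matrix.mulVec_mulVec, hgP, ← Matrix.mulVec_mulVec, hκ, Matrix.mulVec_smul]
    have h2 := hno x _ h1
    rw [herm_right hF, Matrix.mulVec_mulVec, hPP] at h2
    have h4 : J *ᵥ ![κ, 1, 0] = ![0, 1, κ] := by
      funext i
      fin_cases i <;> simp [hJ, J3, Matrix.mulVec, dotProduct, Fin.sum_univ_three]
    rw [h4, hermForm_apply, Fin.sum_univ_three] at h2
    simp [hz0] at h2
  have hl : l = μ := by
    by_contra hne
    have hne' : l - μ ≠ 0 := sub_ne_zero.2 hne
    apply hnorm1 (x12 / (l - μ)) l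
    rw [hGform]
    funext i
    fin_cases i
    · simp [Matrix.mulVec, dotProduct, Fin.sum_univ_three]
      field_simp
      ring
    · simp [Matrix.mulVec, dotProduct, Fin.sum_univ_three]
    · simp [Matrix.mulVec, dotProduct, Fin.sum_univ_three]
  have hx0 : x12 ≠ 0 := by
    intro h0
    apply hnorm1 0 l
    rw [hGform, h0]
    funext i
    fin_cases i <;> simp [Matrix.mulVec, dotProduct, Fin.sum_univ_three]
  rw [hl] at hdetG hR12 hGform
  have hn0 : n ≠ 0 := by
    intro h0
    rw [h0, mul_zero] at hR02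
    exact zero_ne_one hR02
  have hμ2 : μ ^ q = μ ^ 2 := by
    apply mul_right_cancel₀ hn0
    rw [hR02, ← hdetG]
    ring
  have hμ1 : μ = 1 := by
    have h1 : (μ ^ 2) ^ q = μ := by
      rw [← hμ2, pow_q_pow_q hF]
    rw [← pow_mul, mul_comm, pow_mul, hμ2] at h1
    have h2 : μ ^ 3 = 1 := by
      apply mul_left_cancel₀ hμ0
      rw [mul_one]
      nth_rewrite 3 [← h1]
      ring
    exact cube_inj (by rw [h2, one_pow])
  subst hμ1
  rw [one_pow, one_mul] at hR02
  have hn1 : n = 1 := hR02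
  rw [hn1] at hGform hR12 hR22
  rw [one_pow, one_mul, mul_one] at hR12
  rw [one_pow, mul_one, one_mul] at hR22
  have hs' : s = -x12 ^ q := by linear_combination hR12
  have hsq : s ^ q = -x12 := by rw [hs', pow_q_neg hF, pow_q_pow_q hF]
  rw [hsq, hs'] at hR22
  rw [hs'] at hGform
  set a' := x12 with ha'
  have haq0 : a' ^ q ≠ 0 := pow_ne_zero _ hx0
  set N := a' * a' ^ q with hN
  have hN0 : N ≠ 0 := mul_ne_zero hx0 haq0
  have hNq : N ^ q = N := by
    rw [hN, mul_pow, pow_q_pow_q hF, mul_comm]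
  set z := d / N - 1 with hz
  have hzq : z ^ q = -z := by
    have h1 : z ^ q = d ^ q / N - 1 := by
      rw [hz, pow_q_sub hF, div_pow, one_pow, hNq]
    have h2 : d ^ q / N + d / N = -1 := by
      rw [← add_div, div_eq_iff hN0]
      linear_combination hR22
    rw [h1, hz]
    linear_combination h2 - h3
  set β := z * z ^ q with hβ
  have hβq : β ^ q = β := by
    rw [hβ, mul_pow, pow_q_pow_q hF, mul_comm]
  set T : M3 := !![a', z * a', β * a'; 0, 1, z; 0, 0, (a' ^ q)⁻¹] with hT
  have hA : adj q T * (J * T) = J := id_A hF hx0 hzq hβ hβq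
  have hB : G * T = T * G1 F := by
    rw [hGform]
    exact id_B hx0 haq0 hz
  set P' := P * T with hP'
  have hP'P' : adj q P' * P' = J := by
    rw [hP', adj_mul hF]
    calc adj q T * adj q P * (P * T) = adj q T * (adj q P * P * T) := by simp only [mul_assoc]
      _ = J := by rw [hPP, hA]
  have hgP' : g * P' = P' * G1 F := by
    rw [hP']
    calc g * (P * T) = (g * P) * T := by rw [mul_assoc]
      _ = P * (G * T) := by rw [hgP, mul_assoc]
      _ = P * T * G1 F := by rw [hB, mul_assoc]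
  set Q' := J * adj q P' with hQ'
  have hQ'P' : Q' * P' = 1 := by rw [hQ', mul_assoc, hP'P', hJJ]
  have hP'Q' : P' * Q' = 1 := mul_eq_one_comm.1 hQ'P'
  have hadjQ' : adj q Q' = P' * J := by
    rw [hQ', adj_mul hF, adj_adj hF, hJ, adj_J3 hF]
  have hconj : ∀ X Y : M3, (P' * X * Q') * (P' * Y * Q') = P' * (X * Y) * Q' := by
    intro X Y
    calc (P' * X * Q') * (P' * Y * Q') = P' * X * (Q' * P') * Y * Q' := by simp only [mul_assoc]
      _ = _ := by rw [hQ'P', mul_one]; simp only [mul_assoc]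
  have hQg : Q' * g = G1 F * Q' := by
    calc Q' * g = Q' * g * (P' * Q') := by rw [hP'Q', mul_one]
      _ = Q' * (g * P') * Q' := by simp only [mul_assoc]
      _ = (Q' * P') * G1 F * Q' := by rw [hgP']; simp only [mul_assoc]
      _ = G1 F * Q' := by rw [hQ'P', one_mul]
  have hsmul : ∀ (X : M3) (r : F), P' * (X + r • 1) * Q' = P' * X * Q' + r • 1 := by
    intro X r
    rw [mul_add, add_mul, mul_smul_comm, smul_mul_assoc, mul_one, hP'Q']
  refine ⟨P' * Om c * Q', ?_, ?_, ?_⟩
  · rw [adj_mul hF (P' * Om c) Q', adj_mul hF P' (Om c), hadjQ']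
    have e1 := J3_adj_Om hF hc
    rw [← hJ] at e1
    calc P' * J * (adj q (Om c) * adj q P') = P' * (J * adj q (Om c)) * adj q P' := by simp only [mul_assoc]
      _ = P' * (Om c * J) * adj q P' := by rw [e1]
      _ = P' * Om c * Q' := by rw [hQ']; simp only [mul_assoc]
  · rw [pow_succ, pow_two, hconj, hconj, ← pow_two, ← pow_succ, Om_cube, hsmul]
  · calc g * (P' * Om c * Q') = (g * P') * Om c * Q' := by simp only [mul_assoc]
      _ = P' * (G1 F * Om c) * Q' := by rw [hgP']; simp only [mul_assoc]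
      _ = P' * ((Om c + (1 : F) • 1) * G1 F) * Q' := by rw [G1_mul_Om]
      _ = P' * (Om c + (1 : F) • 1) * (G1 F * Q') := by simp only [mul_assoc]
      _ = P' * (Om c + (1 : F) • 1) * (Q' * g) := by rw [hQg]
      _ = (P' * (Om c + (1 : F) • 1) * Q') * g := by simp only [mul_assoc]
      _ = _ := by rw [hsmul]

end Char3

end Cfsg.Agent.Lib.Cover2.PSU3
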